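import Cfsg.Agent.Lib.SchurMult.UFourThree.Data

/-! The certificate at the prime two checks. -/

set_option autoImplicit false

namespace Cfsg.Agent.Lib.SchurMult.UFourThree

theorem allTwo : dataTwo.allOK = true := by decide +kernel

end Cfsg.Agent.Lib.SchurMult.UFourThree
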