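import Cfsg.Agent.Lib.SchurMult.UFourThree.Code

/-! The checks of the certificates in the group. -/

set_option autoImplicit false

namespace Cfsg.Agent.Lib.SchurMult.UFourThree

open Cfsg

/-- A word of generators as a word of codes. -/
def gcodes (gens : List Code) (w : List ℕ) : List Code := w.map fun i => gens.getD i idC

/-- The checks of the relations. -/
def relOK (D : Engine.Data) (gens : List Code) : Bool :=
  gens.all valid && decide (gens.length = D.n) &&
  (List.range D.nv).all fun k => sameC (prodC (gcodes gens (D.lhsAt k))) (prodC (gcodes gens (D.rhsAt k)))

/-- A strictly increasing list. -/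
def incr : List ℕ → Bool
  | a :: b :: r => decide (a < b) && incr (b :: r)
  | _ => true

theorem pairwise_incr : ∀ l, incr l = true → l.Pairwise (· < ·)
  | [], _ => List.Pairwise.nil
  | [a], _ => List.pairwise_singleton _ a
  | a :: b :: r, h => by
    simp only [incr, Bool.and_eq_true, decide_eq_true_eq] at h
    have ih := pairwise_incr (b :: r) h.2
    refine List.pairwise_cons.2 ⟨fun c hc => ?_, ih⟩
    rcases List.mem_cons.1 hc with rfl | hc
    · exact h.1
    · exact lt_trans h.1 ((List.pairwise_cons.1 ih).1 c hc)

/-- The checks of injectivity. -/
def keyOK (D : Engine.Data) (gens : List Code) (sorted : List ℕ) : Bool :=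
  decide (sorted.length = D.p ^ D.n) && sorted.all (fun k => decide (k < D.p ^ D.n)) &&
  incr (sorted.map fun k => key (prodC (gcodes gens (D.word k))))

/-- The check of an equation. -/
def eqnOK (gens conj : List Code) (extra : List ℕ × List ℕ) : Engine.Eqn → Bool
  | .cons _ _ => true
  | .fus k x y x' y' =>
    ((x, y) == extra && x' == [] && y' == []) ||
    (conj.all valid && decide (k < conj.length) &&
      sameC (prodC (conj.getD k idC :: gcodes gens x)) (prodC (gcodes gens x' ++ [conj.getD k idC])) &&
      sameC (prodC (conj.getD k idC :: gcodes gens y)) (prodC (gcodes gens y' ++ [conj.getD k idC])) &&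
      sameC (prodC (gcodes gens x ++ gcodes gens y)) (prodC (gcodes gens y ++ gcodes gens x)))

theorem relTwo : relOK dataTwo gensTwo = true := by decide +kernel
theorem relThree : relOK dataThree gensThree = true := by decide +kernel
theorem keyTwo : keyOK dataTwo gensTwo sortedTwo = true := by decide +kernel
theorem keyThree : keyOK dataThree gensThree sortedThree = true := by decide +kernel

/-- The additional pair at the prime three. -/
def extraThree : List ℕ × List ℕ := ([1, 2, 5], [1, 1, 3, 4, 4, 5])

theorem eqnTwo : dataTwo.eqs.all (eqnOK gensTwo conjTwo ([], [])) = true := by decide +kernel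
theorem eqnThree : dataThree.eqs.all (eqnOK gensThree conjThree extraThree) = true := by decide +kernel

theorem lifts_three :
    sameC (prodC (gcodes gensThree extraThree.1 ++ gcodes gensThree extraThree.2))
      (prodC (gcodes gensThree extraThree.2 ++ gcodes gensThree extraThree.1)) = true ∧
    sameC (prodC (gcodes gensThree extraThree.1 ++ gcodes gensThree extraThree.1 ++ gcodes gensThree extraThree.1))
      (prodC []) = true := by
  decide +kernel

theorem gensThree_valid : gensThree.all valid = true := by decide +kernel

end Cfsg.Agent.Lib.SchurMult.UFourThree
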