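import Cfsg.Agent.Lib.SchurMult.UFourThree.Code
import Cfsg.Agent.Lib.SchurMult.UFourThree.GroupChecks
import Cfsg.Agent.Lib.SchurMult.UFourThree.ChecksTwo
import Cfsg.Agent.Lib.SchurMult.UFourThree.ChecksThree
import Cfsg.Agent.Lib.SchurMult.SylowTests
import Cfsg.Agent.Lib.SchurMult.MathieuCommon

/-!
The kernel of a stem extension of the projective special unitary group of dimension four over nine elements
has order dividing 36.
-/

set_option autoImplicit false

namespace Cfsg.Agent.Lib.SchurMult.UFourThree

open Cfsg Cfsg.Agent.Lib.Classical.NineField Cfsg.Agent.Lib.Classical.UnitaryFourThree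
open scoped commutatorElement

universe v

/-- The values of the generators. -/
def gval (gens : List Code) (i : ℕ) : Q := elt (gens.getD i idC)

theorem ev_gval (gens : List Code) (w : List ℕ) :
    Engine.Data.ev (gval gens) w = ((gcodes gens w).map elt).prod := by
  simp only [Engine.Data.ev, gcodes, List.map_map]
  rfl

theorem valid_idC : valid idC = true := by decide +kernel

theorem valid_gcodes {gens : List Code} (h : gens.all valid = true) (w : List ℕ) :
    ∀ a ∈ gcodes gens w, valid a = true := by
  intro a ha
  obtain ⟨i, -, rfl⟩ := List.mem_map.1 ha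
  rcases Nat.lt_or_ge i gens.length with hi | hi
  · rw [List.getD_eq_getElem _ _ hi]
    exact List.all_eq_true.1 h _ (List.getElem_mem hi)
  · rw [List.getD_eq_default _ _ hi]
    exact valid_idC

theorem card_Q : Nat.card Q = 3265920 := card_PSU_four_three (K := Nine) Nine.card

variable {Δ : Type v} [Group Δ] {τ : Δ →* Q}

theorem bound [Finite Δ] (hτ : Cfsg.IsStemExtension τ) {D : Engine.Data} {gens conj : List Code}
    {sorted : List ℕ} (extra : List ℕ × List ℕ) {p : ℕ} [Fact p.Prime] (hp : D.p = p)
    (hall : D.allOK = true) (hrel : relOK D gens = true) (hkey : keyOK D gens sorted = true)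
    (heqn : D.eqs.all (eqnOK gens conj extra) = true)
    (hextra : ∀ a b : Δ, τ a = Engine.Data.ev (gval gens) extra.1 → τ b = Engine.Data.ev (gval gens) extra.2 →
      ⁅a, b⁆ = 1)
    (hcard : (Nat.card Q).factorization p = D.n) {k : ℕ} (hk : p ^ k ∣ Nat.card τ.ker) : p ^ k ∣ D.bound := by
  simp only [relOK, Bool.and_eq_true, List.all_eq_true, List.mem_range, decide_eq_true_eq] at hrel
  obtain ⟨⟨hgen', -⟩, hrel⟩ := hrel
  have hgen : gens.all valid = true := List.all_eq_true.2 hgen'
  simp only [keyOK, Bool.and_eq_true, List.all_eq_true, decide_eq_true_eq] at hkey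
  obtain ⟨⟨hlen, hlt⟩, hinc⟩ := hkey
  refine Engine.bound_agrees D hτ hp hall (gval gens) (fun j hj => ?_) (fun a ha b hb hab => ?_)
    (fun e he => ?_) hcard hk
  · rw [ev_gval, ev_gval]
    exact same_spec (valid_gcodes hgen _) (valid_gcodes hgen _) (hrel j hj)
  · rw [ev_gval, ev_gval] at hab
    have hkk := key_congr (valid_gcodes hgen _) (valid_gcodes hgen _) hab
    have hp' := (pairwise_incr _ hinc).imp (fun {x y} h => Nat.ne_of_lt h)
    have hnd : sorted.Nodup := List.Nodup.of_map _ hp'
    have hmem : ∀ c < D.p ^ D.n, c ∈ sorted := by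
      intro c hc
      have hsub : sorted.toFinset ⊆ Finset.range (D.p ^ D.n) := fun x hx =>
        Finset.mem_range.2 (hlt x (List.mem_toFinset.1 hx))
      have heq : sorted.toFinset = Finset.range (D.p ^ D.n) := Finset.eq_of_subset_of_card_le hsub
        (by rw [Finset.card_range, List.toFinset_card_of_nodup hnd, hlen])
      exact List.mem_toFinset.1 (heq ▸ Finset.mem_range.2 hc)
    exact List.inj_on_of_nodup_map hp' (hmem a ha) (hmem b hb) hkk
  · have h := List.all_eq_true.1 heqn e he
    rcases e with ⟨u, v⟩ | ⟨j, x, y, x', y'⟩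
    · trivial
    · simp only [eqnOK, Bool.or_eq_true, Bool.and_eq_true, beq_iff_eq, decide_eq_true_eq] at h
      rcases h with ⟨⟨hxy, rfl⟩, rfl⟩ | ⟨⟨⟨⟨hcj', hj⟩, hx⟩, hy⟩, hc⟩
      · intro a b a' b' ha hb ha' _
        subst hxy
        rw [hextra a b ha hb]
        refine (commutatorElement_eq_one_iff_mul_comm.2 ?_).symm
        exact (Subgroup.mem_center_iff.1 (hτ.2.1 (show a' ∈ τ.ker by rw [MonoidHom.mem_ker, ha']; rfl)) b').symm
      · have hcj : valid (conj.getD j idC) = true := by
          rw [List.getD_eq_getElem _ _ hj]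
          exact List.all_eq_true.1 hcj' _ (List.getElem_mem hj)
        refine Engine.agrees_of_holds hτ (γ := fun i => elt (conj.getD i idC)) (j := j) ⟨?_, ?_⟩ ?_
        · have e := same_spec (v := conj.getD j idC :: gcodes gens x) (w := gcodes gens x' ++ [conj.getD j idC])
            (fun a ha => by
              rcases List.mem_cons.1 ha with rfl | ha
              exacts [hcj, valid_gcodes hgen _ a ha])
            (fun a ha => by
              rcases List.mem_append.1 ha with ha | ha
              exacts [valid_gcodes hgen _ a ha, (List.mem_singleton.1 ha).symm ▸ hcj]) hx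
          rw [List.map_cons, List.prod_cons, List.map_append, List.prod_append, List.map_singleton,
            List.prod_singleton] at e
          rw [ev_gval, ev_gval]
          exact e
        · have e := same_spec (v := conj.getD j idC :: gcodes gens y) (w := gcodes gens y' ++ [conj.getD j idC])
            (fun a ha => by
              rcases List.mem_cons.1 ha with rfl | ha
              exacts [hcj, valid_gcodes hgen _ a ha])
            (fun a ha => by
              rcases List.mem_append.1 ha with ha | ha
              exacts [valid_gcodes hgen _ a ha, (List.mem_singleton.1 ha).symm ▸ hcj]) hy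
          rw [List.map_cons, List.prod_cons, List.map_append, List.prod_append, List.map_singleton,
            List.prod_singleton] at e
          rw [ev_gval, ev_gval]
          exact e
        · have e := same_spec (v := gcodes gens x ++ gcodes gens y) (w := gcodes gens y ++ gcodes gens x)
            (fun a ha => by
              rcases List.mem_append.1 ha with ha | ha <;> exact valid_gcodes hgen _ a ha)
            (fun a ha => by
              rcases List.mem_append.1 ha with ha | ha <;> exact valid_gcodes hgen _ a ha) hc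
          rw [List.map_append, List.prod_append, List.map_append, List.prod_append] at e
          rw [Commute, SemiconjBy, ev_gval, ev_gval]
          exact e

theorem card_ker_dvd [Finite Δ] (hτ : Cfsg.IsStemExtension τ) : Nat.card τ.ker ∣ 36 := by
  refine (Nat.dvd_iff_prime_pow_dvd_dvd 36 _).2 fun r k hr hk => ?_
  haveI := Fact.mk hr
  by_cases h2 : r = 2
  · subst h2
    exact (bound (p := 2) hτ (D := dataTwo) ([], []) rfl allTwo relTwo keyTwo eqnTwo
      (fun a b ha _ => commutatorElement_eq_one_iff_mul_comm.2
        (Subgroup.mem_center_iff.1 (hτ.2.1 (show a ∈ τ.ker by rw [MonoidHom.mem_ker, ha]; rfl)) b).symm)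
      (Mathieu.factorization_of (r := 25515) Nat.prime_two (by rw [card_Q]; rfl) (by decide)) hk).trans
      (by decide)
  by_cases h3 : r = 3
  · subst h3
    obtain ⟨hcomm, hcube⟩ := lifts_three
    have hg : gensThree.all valid = true := gensThree_valid
    obtain ⟨A, hA⟩ := hτ.1 (Engine.Data.ev (gval gensThree) extraThree.1)
    obtain ⟨B, hB⟩ := hτ.1 (Engine.Data.ev (gval gensThree) extraThree.2)
    have hv2 : ∀ w₁ w₂ : List ℕ, ∀ a ∈ gcodes gensThree w₁ ++ gcodes gensThree w₂, valid a = true :=
      fun w₁ w₂ a ha => (List.mem_append.1 ha).elim (valid_gcodes hg _ a) (valid_gcodes hg _ a)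
    have hcx : τ A * τ B = τ B * τ A := by
      have e := same_spec (hv2 _ _) (hv2 _ _) hcomm
      rw [List.map_append, List.prod_append, List.map_append, List.prod_append] at e
      rw [hA, hB, ev_gval, ev_gval]
      exact e
    have hA3 : A ^ 3 ∈ τ.ker := by
      have e := same_spec (fun a ha => (List.mem_append.1 ha).elim (hv2 _ _ a) (valid_gcodes hg _ a))
        (fun a ha => absurd ha (List.not_mem_nil)) hcube
      rw [List.map_append, List.prod_append, List.map_append, List.prod_append, List.map_nil, List.prod_nil] at e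
      rw [MonoidHom.mem_ker, map_pow, hA, ev_gval, pow_succ, pow_succ, pow_one]
      exact e
    set c := ⁅A, B⁆ with hc
    have hck : c ∈ τ.ker := by
      rw [MonoidHom.mem_ker, map_commutatorElement, commutatorElement_eq_one_iff_mul_comm]; exact hcx
    have hcc := Subgroup.mem_center_iff.1 (hτ.2.1 hck)
    have hc3 : c ^ 3 = 1 := by
      calc c ^ 3 = A * (A * c * A⁻¹ * c) * A⁻¹ * c := by
            rw [hcc A, mul_inv_cancel_right, ← mul_assoc, hcc A, pow_succ, pow_two]
            rw [mul_assoc c A c, hcc A, ← mul_assoc, mul_inv_cancel_right]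
        _ = ⁅A ^ 3, B⁆ := by simp only [hc, commutatorElement_def, pow_succ, pow_zero]; group
        _ = 1 := commutatorElement_eq_one_iff_mul_comm.2 (Subgroup.mem_center_iff.1 (hτ.2.1 hA3) B).symm
    -- the quotient by the commutator
    haveI : (Subgroup.zpowers c).Normal := ⟨fun z hz g => by
      obtain ⟨i, rfl⟩ := Subgroup.mem_zpowers_iff.1 hz
      rw [Subgroup.mem_center_iff.1 (zpow_mem (hτ.2.1 hck) i) g, mul_inv_cancel_right]
      exact Subgroup.zpow_mem_zpowers c i⟩
    have hL : Subgroup.zpowers c ≤ τ.ker := Subgroup.zpowers_le.2 hck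
    let q := QuotientGroup.mk' (Subgroup.zpowers c)
    let τ' : Δ ⧸ Subgroup.zpowers c →* Q := QuotientGroup.lift _ τ hL
    have hqs := QuotientGroup.mk'_surjective (Subgroup.zpowers c)
    have hτ' : Cfsg.IsStemExtension τ' := by
      refine ⟨fun y => ?_, fun w hw => ?_, fun w hw => ?_⟩
      · obtain ⟨x, rfl⟩ := hτ.1 y; exact ⟨q x, rfl⟩
      · obtain ⟨x, rfl⟩ := hqs w
        refine Subgroup.mem_center_iff.2 fun y => ?_
        obtain ⟨y, rfl⟩ := hqs y
        rw [← map_mul, ← map_mul, Subgroup.mem_center_iff.1 (hτ.2.1 (show x ∈ τ.ker from hw)) y]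
      · obtain ⟨x, rfl⟩ := hqs w
        have := Subgroup.mem_map_of_mem (QuotientGroup.mk' (Subgroup.zpowers c)) (hτ.2.2 (show x ∈ τ.ker from hw))
        rw [map_commutator_eq] at this
        exact Subgroup.commutator_mono le_top le_top this
    have hextra : ∀ a b, τ' a = Engine.Data.ev (gval gensThree) extraThree.1 →
        τ' b = Engine.Data.ev (gval gensThree) extraThree.2 → ⁅a, b⁆ = 1 := by
      intro a b ha hb
      obtain ⟨a, rfl⟩ := hqs a
      obtain ⟨b, rfl⟩ := hqs b
      have hza : A⁻¹ * a ∈ τ.ker := by
        rw [MonoidHom.mem_ker, map_mul, map_inv, hA]; exact inv_mul_eq_one.2 ha.symm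
      have hzb : B⁻¹ * b ∈ τ.ker := by
        rw [MonoidHom.mem_ker, map_mul, map_inv, hB]; exact inv_mul_eq_one.2 hb.symm
      rw [← map_commutatorElement, show a = A * (A⁻¹ * a) by group, show b = B * (B⁻¹ * b) by group,
        commutatorElement_central_mul _ _ (hτ.2.1 hza) (hτ.2.1 hzb)]
      exact (QuotientGroup.eq_one_iff _).2 (Subgroup.mem_zpowers c)
    let q' : τ.ker →* τ'.ker :=
      MonoidHom.mk' (fun z => ⟨q z.1, z.2⟩) fun a b => Subtype.ext (map_mul q a.1 b.1)
    have hq' : Function.Surjective q' := fun w => by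
      obtain ⟨x, hx⟩ := hqs w.1
      exact ⟨⟨x, by have := w.2; rw [← hx] at this; exact this⟩, Subtype.ext hx⟩
    have hkq : q'.ker = (Subgroup.zpowers c).subgroupOf τ.ker := by
      ext z
      exact ⟨fun hz => (QuotientGroup.eq_one_iff (z : Δ)).1 (congrArg Subtype.val hz :),
        fun hz => Subtype.ext ((QuotientGroup.eq_one_iff _).2 hz)⟩
    have e := q'.ker.card_mul_index
    rw [Subgroup.index_ker, MonoidHom.range_eq_top.2 hq', Subgroup.card_top, hkq,
      Nat.card_congr (Subgroup.subgroupOfEquivOfLe hL).toEquiv, Nat.card_zpowers] at e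
    have hb : ∀ j, 3 ^ j ∣ Nat.card τ'.ker → j ≤ 1 := by
      intro j hj
      have hd := bound (p := 3) hτ' (D := dataThree) extraThree rfl allThree relThree keyThree eqnThree hextra
        (Mathieu.factorization_of (r := 4480) Nat.prime_three (by rw [card_Q]; rfl) (by decide)) hj
      by_contra hlt
      have h9 : 9 ∣ dataThree.bound := (pow_dvd_pow 3 (show 2 ≤ j by omega)).trans hd
      exact absurd (Nat.le_of_dvd (by decide) h9) (by decide)
    rcases (Nat.dvd_prime Nat.prime_three).1 (orderOf_dvd_of_pow_eq_one hc3) with ho | ho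
    · rw [ho, one_mul] at e
      exact (pow_dvd_pow 3 ((hb k (e ▸ hk)).trans (by norm_num : 1 ≤ 2))).trans (by norm_num)
    · rw [ho] at e
      rcases Nat.eq_zero_or_pos k with rfl | hk0
      · simp
      · have hk' : 3 ^ (k - 1) ∣ Nat.card τ'.ker := by
          refine Nat.dvd_of_mul_dvd_mul_left (by norm_num : 0 < 3) ?_
          rw [e, ← pow_succ', Nat.sub_add_cancel hk0]
          exact hk
        exact (pow_dvd_pow 3 (show k ≤ 2 by have := hb _ hk'; omega)).trans (by norm_num)
  rcases Nat.eq_zero_or_pos k with rfl | hk0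
  · simp
  exfalso
  refine SchurMult.not_dvd_ker_of_sq hτ ?_ ((dvd_pow_self r hk0.ne').trans hk)
  rw [card_Q]
  intro hd
  have hco : ∀ {q : ℕ}, q.Prime → r ≠ q → ∀ e, Nat.Coprime (r ^ 2) (q ^ e) := fun hq hne e =>
    ((Nat.coprime_primes hr hq).2 hne).pow 2 e
  have h35 : r ^ 2 ∣ 35 :=
    ((hco Nat.prime_two h2 7).mul_right (hco Nat.prime_three h3 6)).dvd_of_dvd_mul_left hd
  have hle : r ^ 2 ≤ 35 := Nat.le_of_dvd (by norm_num) h35
  have hr5 : r ≤ 5 := by nlinarith
  interval_cases r <;> norm_num at *

end Cfsg.Agent.Lib.SchurMult.UFourThree
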