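import Cfsg.Agent.Lib.SchurMult.UFourThree.Data
import Cfsg.Agent.Lib.SchurMult.EngineComm
import Cfsg.Agent.Lib.Classical.UnitaryFourThree

/-!
Elements of the projective special unitary group of dimension four over nine elements given by codes.
-/

set_option autoImplicit false

namespace Cfsg.Agent.Lib.SchurMult.UFourThree

open Matrix Cfsg.Agent.Lib.Classical.NineField Cfsg.Agent.Lib.Classical.UnitaryFourThree

/-- The group. -/
abbrev Q : Type := Cfsg.PSU 4 Nine 3

/-- The field element of a code. -/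
def toN (x : ℕ) : Nine := ⟨⟨x % 3, Nat.mod_lt _ (by norm_num)⟩, ⟨x / 3 % 3, Nat.mod_lt _ (by norm_num)⟩⟩

/-- The sum on codes. -/
def addc (x y : ℕ) : ℕ := (x % 3 + y % 3) % 3 + 3 * ((x / 3 + y / 3) % 3)

/-- The product on codes. -/
def mulc (x y : ℕ) : ℕ :=
  (x % 3 * (y % 3) + 2 * ((x / 3 % 3) * (y / 3 % 3))) % 3 +
    3 * ((x % 3 * (y / 3 % 3) + (x / 3 % 3) * (y % 3)) % 3)

theorem toN_mod (x : ℕ) : toN x = toN (x % 9) := by
  simp only [toN, Nine.mk.injEq, Fin.mk.injEq]
  constructor <;> omega

theorem toN_addc (x y : ℕ) : toN (addc x y) = toN x + toN y := by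
  have h : ∀ a b : Fin 9, toN (addc a b) = toN a + toN b := by decide +kernel
  rw [toN_mod x, toN_mod y, ← h ⟨x % 9, Nat.mod_lt _ (by norm_num)⟩ ⟨y % 9, Nat.mod_lt _ (by norm_num)⟩]
  congr 1
  simp only [addc]
  omega

theorem toN_mulc (x y : ℕ) : toN (mulc x y) = toN x * toN y := by
  have h : ∀ a b : Fin 9, toN (mulc a b) = toN a * toN b := by decide +kernel
  rw [toN_mod x, toN_mod y, ← h ⟨x % 9, Nat.mod_lt _ (by norm_num)⟩ ⟨y % 9, Nat.mod_lt _ (by norm_num)⟩]
  congr 1
  simp only [mulc]
  rw [show x % 9 % 3 = x % 3 by omega, show y % 9 % 3 = y % 3 by omega,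
    show x % 9 / 3 % 3 = x / 3 % 3 by omega, show y % 9 / 3 % 3 = y / 3 % 3 by omega]

theorem toN_inj {x y : ℕ} (hx : x < 9) (hy : y < 9) (h : toN x = toN y) : x = y := by
  simp only [toN, Nine.mk.injEq, Fin.mk.injEq] at h
  omega

/-- The entry of a code. -/
def ent (a : Code) (k : ℕ) : ℕ := a.getD k 0

/-- The matrix of a code. -/
def toMat (a : Code) : Matrix (Fin 4) (Fin 4) Nine := Matrix.of fun i j => toN (ent a (4 * i.val + j.val))

/-- The product of two codes. -/
def mulC (a b : Code) : Code :=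
  (List.range 16).map fun k =>
    addc (addc (mulc (ent a (4 * (k / 4))) (ent b (k % 4))) (mulc (ent a (4 * (k / 4) + 1)) (ent b (4 + k % 4))))
      (addc (mulc (ent a (4 * (k / 4) + 2)) (ent b (8 + k % 4))) (mulc (ent a (4 * (k / 4) + 3)) (ent b (12 + k % 4))))

theorem toMat_mulC (a b : Code) : toMat (mulC a b) = toMat a * toMat b := by
  ext1 i j
  have hk : 4 * i.val + j.val < 16 := by omega
  have e1 : (4 * i.val + j.val) / 4 = i.val := by omega
  have e2 : (4 * i.val + j.val) % 4 = j.val := by omega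
  simp only [toMat, Matrix.of_apply, Matrix.mul_apply, Fin.sum_univ_four, ent, mulC,
    List.getD_eq_getElem?_getD, List.getElem?_map, List.getElem?_range hk, Option.map_some, Option.getD_some,
    e1, e2, toN_addc, toN_mulc]
  simp [add_assoc]

/-- The identity. -/
def idC : Code := [1, 0, 0, 0, 0, 1, 0, 0, 0, 0, 1, 0, 0, 0, 0, 1]

theorem toMat_idC : toMat idC = 1 := by decide +kernel

/-- A multiple of a code. -/
def smulC (m : ℕ) (a : Code) : Code := (List.range 16).map fun k => mulc m (ent a k)

theorem toMat_smulC (m : ℕ) (a : Code) : toMat (smulC m a) = toN m • toMat a := by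
  ext1 i j
  have hk : 4 * i.val + j.val < 16 := by omega
  simp only [toMat, Matrix.of_apply, Matrix.smul_apply, smul_eq_mul, ent, smulC,
    List.getD_eq_getElem?_getD, List.getElem?_map, List.getElem?_range hk, Option.map_some, Option.getD_some,
    toN_mulc]

/-- A code of an element of the unitary group. -/
def valid (a : Code) : Bool := decide ((toMat a).det = 1 ∧ star3 (toMat a) * toMat a = 1)

/-- The element of a code. -/
def eltS (a : Code) : SU4 :=
  if h : valid a = true then
    ⟨⟨toMat a, (of_decide_eq_true h).1⟩, mem_SU4.2 (of_decide_eq_true h).2⟩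
  else 1

theorem mat_eltS {a : Code} (h : valid a = true) : mat (eltS a) = toMat a := by
  rw [eltS, dif_pos h]

/-- The image in the projective group. -/
def elt (a : Code) : Q := QuotientGroup.mk (eltS a)

/-- The product of a word of codes. -/
def prodC (w : List Code) : Code := w.foldr mulC idC

theorem mat_prod {w : List Code} (h : ∀ a ∈ w, valid a = true) :
    mat (w.map eltS).prod = toMat (prodC w) := by
  induction w with
  | nil => rw [List.map_nil, List.prod_nil]; exact toMat_idC.symm
  | cons a w ih =>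
    rw [List.map_cons, List.prod_cons, mat_mul, mat_eltS (h a (List.mem_cons_self ..)),
      ih fun b hb => h b (List.mem_cons_of_mem _ hb), show prodC (a :: w) = mulC a (prodC w) from rfl, toMat_mulC]

/-- Codes of the four central scalars. -/
def units : List ℕ := [1, 2, 3, 6]

theorem elt_prod {w : List Code} : (w.map elt).prod = QuotientGroup.mk (w.map eltS).prod := by
  induction w with
  | nil => simp
  | cons a w ih => simp [List.map_cons, List.prod_cons, ih, elt]

/-- The matrices differ by a central scalar. -/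
def sameC (a b : Code) : Bool := units.any fun m => smulC m a == smulC 1 b

theorem one_smulC (b : Code) : toMat (smulC 1 b) = toMat b := by
  rw [toMat_smulC, show toN 1 = 1 from rfl, one_smul]

theorem same_spec {v w : List Code} (hv : ∀ a ∈ v, valid a = true) (hw : ∀ a ∈ w, valid a = true)
    (h : sameC (prodC v) (prodC w) = true) : (v.map elt).prod = (w.map elt).prod := by
  obtain ⟨m, -, hm⟩ := List.any_eq_true.1 h
  have e : toN m • mat (v.map eltS).prod = mat (w.map eltS).prod := by
    rw [mat_prod hv, mat_prod hw, ← toMat_smulC, beq_iff_eq.1 hm, one_smulC]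
  rw [elt_prod, elt_prod, QuotientGroup.eq, Subgroup.mem_center_iff]
  intro z
  set x := (v.map eltS).prod with hx
  have hz : mat (x⁻¹ * (w.map eltS).prod) = toN m • (1 : Matrix (Fin 4) (Fin 4) Nine) := by
    rw [mat_mul, ← e, Matrix.mul_smul, ← mat_mul, inv_mul_cancel]
    rfl
  refine mat_inj ?_
  rw [mat_mul z, mat_mul _ z, hz, Matrix.mul_smul, Matrix.smul_mul, Matrix.mul_one, Matrix.one_mul]

/-- The value of a code. -/
def num (a : Code) : ℕ := ((List.range 16).map fun k => ent a k % 9).foldl (fun r x => 9 * r + x) 0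

/-- The key of a code up to central scalars. -/
def key (a : Code) : ℕ := min (min (num (smulC 1 a)) (num (smulC 2 a))) (min (num (smulC 3 a)) (num (smulC 6 a)))

theorem num_congr {a b : Code} (h : toMat a = toMat b) : num a = num b := by
  refine congrArg (List.foldl _ 0) (List.map_congr_left fun k hk => ?_)
  have hk' := List.mem_range.1 hk
  have e := congrFun (congrFun h ⟨k / 4, by omega⟩) ⟨k % 4, Nat.mod_lt _ (by norm_num)⟩
  simp only [toMat, Matrix.of_apply, Nat.div_add_mod] at e
  rw [toN_mod, toN_mod (ent b k)] at e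
  exact toN_inj (Nat.mod_lt _ (by norm_num)) (Nat.mod_lt _ (by norm_num)) e

theorem unit_code : ∀ μ : Nine, μ ^ 4 = 1 → μ = toN 1 ∨ μ = toN 2 ∨ μ = toN 3 ∨ μ = toN 6 := by
  decide +kernel

theorem key_smul {a b : Code} {μ : Nine} (hμ : μ ^ 4 = 1) (h : toMat b = μ • toMat a) : key b = key a := by
  have hs : ∀ m n r, toN m * μ = toN r → n = r → num (smulC m b) = num (smulC n a) := fun m n r e hn => by
    subst hn
    exact num_congr (by rw [toMat_smulC, toMat_smulC, h, smul_smul, e])
  rcases unit_code μ hμ with rfl | rfl | rfl | rfl <;> simp only [key]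
  · rw [hs 1 1 1 (by decide) rfl, hs 2 2 2 (by decide) rfl, hs 3 3 3 (by decide) rfl, hs 6 6 6 (by decide) rfl]
  · rw [hs 1 2 2 (by decide) rfl, hs 2 1 1 (by decide) rfl, hs 3 6 6 (by decide) rfl, hs 6 3 3 (by decide) rfl]
    omega
  · rw [hs 1 3 3 (by decide) rfl, hs 2 6 6 (by decide) rfl, hs 3 2 2 (by decide) rfl, hs 6 1 1 (by decide) rfl]
    omega
  · rw [hs 1 6 6 (by decide) rfl, hs 2 3 3 (by decide) rfl, hs 3 1 1 (by decide) rfl, hs 6 2 2 (by decide) rfl]
    omega

theorem center_unit {z : SU4} (h : z ∈ Subgroup.center SU4) : ∃ μ : Nine, μ ^ 4 = 1 ∧ mat z = μ • 1 := by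
  obtain ⟨μ, hμ⟩ := center_scalar h
  refine ⟨μ, ?_, hμ⟩
  have := (z : SpecialLinearGroup (Fin 4) Nine).2
  rwa [show (z : SpecialLinearGroup (Fin 4) Nine).1 = μ • 1 from hμ, det_smul, det_one, mul_one,
    Fintype.card_fin] at this

theorem key_congr {v w : List Code} (hv : ∀ a ∈ v, valid a = true) (hw : ∀ a ∈ w, valid a = true)
    (h : (v.map elt).prod = (w.map elt).prod) : key (prodC v) = key (prodC w) := by
  rw [elt_prod, elt_prod, QuotientGroup.eq] at h
  obtain ⟨μ, hμ, e⟩ := center_unit h
  refine (key_smul hμ ?_).symm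
  rw [← mat_prod hv, ← mat_prod hw]
  calc mat (w.map eltS).prod = mat ((v.map eltS).prod * ((v.map eltS).prod⁻¹ * (w.map eltS).prod)) := by
        rw [mul_inv_cancel_left]
    _ = _ := by rw [mat_mul, e, Matrix.mul_smul, Matrix.mul_one]

end Cfsg.Agent.Lib.SchurMult.UFourThree
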