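import Cfsg.Agent.Lib.SchurMult.UFourThree.SylowExt

/-!
The projection of the extension to the projective special unitary group, and the stability of its commutators
on two pairs.
-/

set_option autoImplicit false
set_option maxRecDepth 100000

namespace Cfsg.Agent.Lib.SchurMult.UFourThree

open Matrix Cfsg.Agent.Lib.Classical.NineField Cfsg.Agent.Lib.Classical.UnitaryFourThree
open scoped commutatorElement

local notation "M4" => Matrix (Fin 4) (Fin 4) Nine

/-- The imaginary unit. -/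
def iu : Nine := ⟨0, 1⟩

/-- An element of order eight. -/
def wu : Nine := ⟨1, 1⟩

/-- A hyperbolic basis for the standard form. -/
def bas : M4 := !![1, 0, 0, -1; wu, 0, 0, wu; 0, 1, -1, 0; 0, wu, wu, 0]

/-- The antidiagonal Gram matrix. -/
def gram : M4 := !![0, 0, 0, 1; 0, 0, 1, 0; 0, 1, 0, 0; 1, 0, 0, 0]

/-- The inverse of the basis. -/
def basInv : M4 := gram * star3 bas

theorem bas_facts : star3 bas * bas = gram ∧ basInv * bas = 1 ∧ bas * basInv = 1 ∧
    star3 basInv * gram * basInv = 1 := by decide +kernel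

theorem star3_mul (A B : M4) : star3 (A * B) = star3 B * star3 A := by
  ext1 i j
  simp only [star3, Matrix.of_apply, Matrix.mul_apply, Fin.sum_univ_four, cube_add, mul_pow]
  ring

namespace Cov

theorem det_mtx (s : Cov) : (mtx s).det = 1 := by
  rw [Matrix.det_of_upperTriangular (fun i j hij => by
    fin_cases i <;> fin_cases j <;> simp [mtx] at hij ⊢), Fin.prod_univ_four]
  simp [mtx]

theorem mtx_unitary (s : Cov) : star3 (mtx s) * gram * mtx s = gram := by
  have h3 := three_zero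
  have h9 := pow_nine
  obtain ⟨hb, hc⟩ := cubes s
  ext1 i j
  fin_cases i <;> fin_cases j <;>
    simp [mtx, star3, gram, Matrix.mul_apply, Fin.sum_univ_four, cube_add, cube_sub, mul_pow, hb, hc]
  all_goals (try simp only [h9])
  all_goals first
    | ring1
    | (rw [neg_pow, show ((-1 : Nine)) ^ 3 = -1 by decide +kernel, ← pow_mul, h9]; ring1)
    | (simp only [neg_pow, show ((-1 : Nine)) ^ 3 = -1 by decide +kernel, ← pow_mul, h9, hb, hc, mul_pow,
          cube_add, cube_sub]; ring1)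

theorem det_bas : bas.det * basInv.det = 1 := by
  rw [← Matrix.det_mul, bas_facts.2.2.1, Matrix.det_one]

theorem conj_mem (s : Cov) :
    (bas * mtx s * basInv).det = 1 ∧ star3 (bas * mtx s * basInv) * (bas * mtx s * basInv) = 1 := by
  obtain ⟨h1, -, -, h4⟩ := bas_facts
  refine ⟨?_, ?_⟩
  · rw [Matrix.det_mul, Matrix.det_mul, det_mtx, mul_one, det_bas]
  · rw [star3_mul, star3_mul]
    calc star3 basInv * (star3 (mtx s) * star3 bas) * (bas * mtx s * basInv)
        = star3 basInv * (star3 (mtx s) * (star3 bas * bas) * mtx s) * basInv := by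
          simp only [Matrix.mul_assoc]
      _ = 1 := by rw [h1, mtx_unitary, h4]

/-- The lift to the special unitary group. -/
def toSU : Cov →* SU4 :=
  MonoidHom.mk' (fun s => ⟨⟨bas * mtx s * basInv, (conj_mem s).1⟩, mem_SU4.2 (conj_mem s).2⟩) fun s u => by
    refine mat_inj ?_
    show bas * mtx (s * u) * basInv = (bas * mtx s * basInv) * (bas * mtx u * basInv)
    rw [mtx_mul]
    calc bas * (mtx s * mtx u) * basInv = bas * mtx s * 1 * mtx u * basInv := by
          simp only [Matrix.mul_assoc, Matrix.one_mul]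
      _ = _ := by rw [← bas_facts.2.1]; simp only [Matrix.mul_assoc]

theorem mat_toSU (s : Cov) : mat (toSU s) = bas * mtx s * basInv := rfl

/-- The projection. -/
def proj : Cov →* Cfsg.PSU 4 Nine 3 := (QuotientGroup.mk' (Subgroup.center SU4)).comp toSU

theorem proj_eq_one {s : Cov} (h : proj s = 1) : s = ker s.z := by
  obtain ⟨μ, hμ⟩ := center_scalar ((QuotientGroup.eq_one_iff _).1 h)
  rw [mat_toSU] at hμ
  have e : mtx s = μ • 1 := by
    have h2 := congrArg (fun X : M4 => basInv * X * bas) hμ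
    simp only [Matrix.mul_smul, Matrix.smul_mul, mul_one, bas_facts.2.1] at h2
    rw [← h2]
    calc mtx s = (basInv * bas) * mtx s * (basInv * bas) := by rw [bas_facts.2.1, one_mul, mul_one]
      _ = _ := by simp only [Matrix.mul_assoc]
  have q : ∀ i j, mtx s i j = (μ • (1 : M4)) i j := fun i j => by rw [e]
  have ht : s.t = 0 := by simpa [mtx] using q 0 1
  have hc : s.c = 0 := by simpa [mtx] using q 1 2
  have ha : s.a = 0 := by simpa [mtx, ht] using q 0 2
  have hb : s.b = 0 := by simpa [mtx, ht] using q 0 3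
  ext1 <;> simp [ker, ht, ha, hb, hc]

theorem proj_ker (x : Nine) : proj (ker x) = 1 := by
  refine (QuotientGroup.eq_one_iff _).2 ?_
  have e : toSU (ker x) = 1 := by
    refine mat_inj ?_
    rw [mat_toSU, show mtx (ker x) = 1 by
      ext1 i j
      fin_cases i <;> fin_cases j <;> simp [mtx, ker], mul_one, bas_facts.2.2.1]
    rfl
  rw [e]
  exact one_mem _

theorem ker_le_center : proj.ker ≤ Subgroup.center Cov := fun s hs => by
  rw [proj_eq_one hs]
  exact Subgroup.mem_center_iff.2 fun u => (ker_comm _ u).symm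

/-- The coordinate of the commutator of a commuting pair. -/
def kap (t a c t' a' c' : Nine) : Nine := t' * a + t' ^ 2 * c - (t * a' + t ^ 2 * c')

theorem commutator_eq {s u : Cov} (h : proj s * proj u = proj u * proj s) :
    ⁅s, u⁆ = ker (kap s.t s.a s.c u.t u.a u.c) := by
  have h1 : proj ⁅s, u⁆ = 1 := by
    rw [map_commutatorElement, commutatorElement_eq_one_iff_mul_comm]; exact h
  have e := proj_eq_one h1
  have e2 : ⁅s, u⁆ * (u * s) = s * u := by rw [commutatorElement_def]; group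
  rw [e, ker_mul] at e2
  have e3 := congrArg Cov.z e2
  simp only [mul_z] at e3
  rw [e]
  congr 1
  simp only [kap]
  linear_combination e3

/-- The first element of a pair. -/
def px1 (τ : Nine) : Cov := ⟨0, τ, 0, 0, 0, by decide +kernel, by decide +kernel⟩

/-- The second element of a pair. -/
def px2 (τ : Nine) : Cov := ⟨τ, 0, 0, 0, 0, by decide +kernel, by decide +kernel⟩

/-- The Levi representatives of the four fixed lines, with their inverses. -/
def line : Fin 4 → M4 × M4 :=
  ![(1, 1),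
   (!![1, 0, 0, 0; 0, 1, 0, 0; 0, iu, 1, 0; 0, 0, 0, 1], !![1, 0, 0, 0; 0, 1, 0, 0; 0, -iu, 1, 0; 0, 0, 0, 1]),
   (!![1, 0, 0, 0; 0, 1, 0, 0; 0, -iu, 1, 0; 0, 0, 0, 1], !![1, 0, 0, 0; 0, 1, 0, 0; 0, iu, 1, 0; 0, 0, 0, 1]),
   (!![1, 0, 0, 0; 0, 0, iu, 0; 0, iu, 0, 0; 0, 0, 0, 1], !![1, 0, 0, 0; 0, 0, -iu, 0; 0, -iu, 0, 0; 0, 0, 0, 1])]

theorem lines_facts : ∀ k, (line k).2 * (line k).1 = 1 ∧ (line k).1 * (line k).2 = 1 ∧ star3 (line k).1 * gram * (line k).1 = gram ∧
    star3 (line k).2 * gram * (line k).2 = gram ∧ (line k).1.det = 1 ∧ (line k).2.det = 1 := by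
  decide +kernel

/-- The two parameters. -/
def taus : List Nine := [iu, wu]

/-- The commutator coordinate after conjugation by a line representative and a diagonal matrix. -/
def conjKap (L : M4 × M4) (τ α β : Nine) : Nine :=
  let d : Fin 4 → Nine := ![α, β, (β ^ 3)⁻¹, (α ^ 3)⁻¹]
  let rd := fun C : M4 => fun i j => (d i)⁻¹ * C i j * d j
  let X := rd (L.2 * mtx (px1 τ) * L.1)
  let Y := rd (L.2 * mtx (px2 τ) * L.1)
  kap (X 0 1) (X 0 2 - X 0 1 * X 1 2) (X 1 2) (Y 0 1) (Y 0 2 - Y 0 1 * Y 1 2) (Y 1 2)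

theorem conjKap_eq : ∀ k : Fin 4, ∀ τ ∈ taus, ∀ α β : Nine, (α * β) ^ 2 = 1 →
    conjKap (line k) τ α β = τ ^ 2 := by
  decide +kernel

theorem similar_eq {K : Type} [Field K] {P Pi M Mi U X : Matrix (Fin 4) (Fin 4) K} {μ : K} (hP : Pi * P = 1) (hP' : P * Pi = 1) (hM : M * Mi = 1)
    (hM' : Mi * M = 1) (e : M * (P * U * Pi) * (μ • 1) = P * X * Pi * M) (htrU : Matrix.trace U = 1)
    (htrX : Matrix.trace X = 1) : Pi * M * P * U = X * (Pi * M * P) := by
  have hg : ∀ A B : Matrix (Fin 4) (Fin 4) K, A * B = 1 → (Pi * A * P) * (Pi * B * P) = 1 := fun A B hAB => by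
    calc (Pi * A * P) * (Pi * B * P) = Pi * (A * ((P * Pi) * B)) * P := by simp only [Matrix.mul_assoc]
      _ = 1 := by rw [hP', one_mul, hAB, mul_one, hP]
  have e' := congrArg (fun Y : Matrix (Fin 4) (Fin 4) K => Pi * Y * P) e
  simp only [Matrix.mul_smul, Matrix.smul_mul, mul_one] at e'
  have e1 : Pi * (M * (P * U * Pi)) * P = Pi * M * P * U := by
    calc Pi * (M * (P * U * Pi)) * P = Pi * M * P * U * (Pi * P) := by simp only [Matrix.mul_assoc]
      _ = _ := by rw [hP, mul_one]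
  have e2 : Pi * (P * X * Pi * M) * P = X * (Pi * M * P) := by
    calc Pi * (P * X * Pi * M) * P = (Pi * P) * X * (Pi * M * P) := by simp only [Matrix.mul_assoc]
      _ = _ := by rw [hP, one_mul]
  rw [e1, e2] at e'
  have e3 : μ • (Pi * M * P * U * (Pi * Mi * P)) = X := by
    rw [← Matrix.smul_mul, e', Matrix.mul_assoc, hg M Mi hM, mul_one]
  have h1 := congrArg Matrix.trace e3
  rw [Matrix.trace_smul, Matrix.trace_mul_cycle, hg Mi M hM', one_mul, htrU, htrX, smul_eq_mul, mul_one] at h1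
  rwa [h1, one_smul] at e'

theorem trace_mtx (s : Cov) : Matrix.trace (mtx s) = 1 := by
  simp [Matrix.trace, Fin.sum_univ_four, mtx]
  decide +kernel

/-- The equations of conjugation into the Sylow subgroup. -/
theorem mat_eq {G : SU4} {u x : Cov}
    (h : proj u = (QuotientGroup.mk' (Subgroup.center SU4) G)⁻¹ * proj x * QuotientGroup.mk' (Subgroup.center SU4) G) :
    basInv * mat G * bas * mtx u = mtx x * (basInv * mat G * bas) := by
  have h1 : QuotientGroup.mk' (Subgroup.center SU4) (G * toSU u) =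
      QuotientGroup.mk' (Subgroup.center SU4) (toSU x * G) := by
    rw [map_mul, map_mul, show QuotientGroup.mk' (Subgroup.center SU4) (toSU u) = proj u from rfl, h,
      show QuotientGroup.mk' (Subgroup.center SU4) (toSU x) = proj x from rfl]
    group
  obtain ⟨z, hz, e⟩ := (QuotientGroup.mk'_eq_mk' _).1 h1
  obtain ⟨μ, hμ⟩ := center_scalar hz
  have e' := congrArg mat e
  simp only [Cfsg.Agent.Lib.Classical.UnitaryFourThree.mat_mul, hμ, mat_toSU] at e'
  have hone : mat (1 : SU4) = (1 : M4) := rfl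
  exact similar_eq bas_facts.2.1 bas_facts.2.2.1
    (by rw [← Cfsg.Agent.Lib.Classical.UnitaryFourThree.mat_mul, mul_inv_cancel, hone])
    (by rw [← Cfsg.Agent.Lib.Classical.UnitaryFourThree.mat_mul, inv_mul_cancel, hone]) e' (trace_mtx u) (trace_mtx x)

theorem exists_unipotent {N : M4} (hlow : ∀ i j : Fin 4, j < i → N i j = 0) (hdiag : ∀ i, N i i = 1)
    (hu : star3 N * gram * N = gram) : ∃ n : Cov, mtx n = N := by
  have h3 := three_zero
  have h9 := pow_nine
  have q : ∀ i j, (star3 N * gram * N) i j = gram i j := fun i j => by rw [hu]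
  have z10 := hlow 1 0 (by decide)
  have z20 := hlow 2 0 (by decide)
  have z30 := hlow 3 0 (by decide)
  have z21 := hlow 2 1 (by decide)
  have z31 := hlow 3 1 (by decide)
  have z32 := hlow 3 2 (by decide)
  have q13 := q 1 3
  have q22 := q 2 2
  have q23 := q 2 3
  have q33 := q 3 3
  simp [star3, gram, Matrix.mul_apply, Fin.sum_univ_four, z10, z20, z30, z21, z31, z32, hdiag] at q13 q22 q23 q33
  set t := N 0 1
  set c := N 1 2
  have hc : c ^ 3 = -c := by linear_combination q22
  have e23 : N 2 3 = -(t ^ 3) := by linear_combination q13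
  set a := N 0 2 - t * c with ha
  have e13 : N 1 3 = -(a ^ 3) := by
    rw [ha, cube_sub, mul_pow, hc]
    linear_combination q23 - c ^ 3 * e23 + t ^ 3 * hc
  have hb : (N 0 3 + t * a ^ 3) ^ 3 = -(N 0 3 + t * a ^ 3) := by
    rw [e23, e13] at q33
    rw [cube_add, mul_pow, ← pow_mul, show 3 * 3 = 9 from rfl, h9]
    have e1 : (-(a ^ 3)) ^ 3 = -a := by
      rw [neg_pow, ← pow_mul, show 3 * 3 = 9 from rfl, h9]
      ring
    have e2 : (-(t ^ 3)) ^ 3 = -t := by
      rw [neg_pow, ← pow_mul, show 3 * 3 = 9 from rfl, h9]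
      ring
    linear_combination q33 - (-(t ^ 3)) * e1 - (-(a ^ 3)) * e2
  refine ⟨⟨t, a, N 0 3 + t * a ^ 3, c, 0, hb, hc⟩, ?_⟩
  ext1 i j
  fin_cases i <;> fin_cases j <;> simp [mtx, z10, z20, z30, z21, z31, z32, hdiag, e23, e13]
  all_goals first | rfl | (simp [ha]; done) | ring1

theorem upper_of_fixed {h : M4} {k : Fin 4} {L : M4 × M4} (hL : L = line k) (hh : star3 h * gram * h = gram)
    (hdet : h.det = 1) (h20 : h 2 0 = 0) (h30 : h 3 0 = 0) (h10 : h 1 0 = 0) (h31 : h 3 1 = 0)
    (h21 : (L.2 * h) 2 1 = 0) (h32 : (L.2 * h) 3 2 = 0) :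
    ∃ (d : Fin 4 → Nine) (n : Cov) (α β : Nine), (α * β) ^ 2 = 1 ∧ d = ![α, β, (β ^ 3)⁻¹, (α ^ 3)⁻¹] ∧
      (∀ i, d i ≠ 0) ∧ h = L.1 * Matrix.diagonal d * mtx n := by
  obtain ⟨hinv, hinv', -, hu2, -, hd2⟩ : L.2 * L.1 = 1 ∧ L.1 * L.2 = 1 ∧ star3 L.1 * gram * L.1 = gram ∧
      star3 L.2 * gram * L.2 = gram ∧ L.1.det = 1 ∧ L.2.det = 1 := hL ▸ lines_facts k
  set b := L.2 * h with hb
  have hbu : star3 b * gram * b = gram := by
    rw [hb, star3_mul]
    calc star3 h * star3 L.2 * gram * (L.2 * h) = star3 h * (star3 L.2 * gram * L.2) * h := by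
          simp only [Matrix.mul_assoc]
      _ = gram := by rw [hu2, hh]
  have hlow : ∀ i j : Fin 4, j < i → b i j = 0 := by
    have hl : ∀ k, (line k).2 1 0 = 0 ∧ (line k).2 2 0 = 0 ∧ (line k).2 3 0 = 0 ∧ (line k).2 3 1 = 0 ∧
        (line k).2 3 2 = 0 := by
      decide +kernel
    obtain ⟨l10, l20, l30, l31, l32⟩ : L.2 1 0 = 0 ∧ L.2 2 0 = 0 ∧ L.2 3 0 = 0 ∧ L.2 3 1 = 0 ∧ L.2 3 2 = 0 :=
      hL ▸ hl k
    intro i j hij
    fin_cases i <;> fin_cases j <;> simp at hij
    all_goals first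
      | exact h21
      | exact h32
      | (simp [hb, Matrix.mul_apply, Fin.sum_univ_four, h20, h30, h10, h31, l10, l20, l30, l31, l32])
  have q : ∀ i j, (star3 b * gram * b) i j = gram i j := fun i j => by rw [hbu]
  have q03 := q 0 3
  have q12 := q 1 2
  simp [star3, gram, Matrix.mul_apply, Fin.sum_univ_four, hlow 1 0 (by decide), hlow 2 0 (by decide),
    hlow 3 0 (by decide), hlow 2 1 (by decide), hlow 3 1 (by decide), hlow 3 2 (by decide)] at q03 q12
  have hdb : b.det = 1 := by rw [hb, Matrix.det_mul, hd2, hdet, one_mul]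
  rw [Matrix.det_of_upperTriangular (fun i j hij => hlow i j hij), Fin.prod_univ_four] at hdb
  have n0 : b 0 0 ≠ 0 := fun e => by simp [e] at hdb
  have n1 : b 1 1 ≠ 0 := fun e => by simp [e] at hdb
  have e3 : b 3 3 = (b 0 0 ^ 3)⁻¹ := eq_inv_of_mul_eq_one_right q03
  have e2 : b 2 2 = (b 1 1 ^ 3)⁻¹ := eq_inv_of_mul_eq_one_right q12
  have hab : ∀ x y : Nine, x * y * (y ^ 3)⁻¹ * (x ^ 3)⁻¹ = 1 → (x * y) ^ 2 = 1 := by decide +kernel
  set d : Fin 4 → Nine := ![b 0 0, b 1 1, (b 1 1 ^ 3)⁻¹, (b 0 0 ^ 3)⁻¹] with hd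
  have hdi : ∀ i, d i = b i i := fun i => by fin_cases i <;> simp [hd, e2, e3]
  have hne : ∀ i, d i ≠ 0 := fun i => by fin_cases i <;> simp [hd, n0, n1]
  set N : M4 := Matrix.diagonal (fun i => (d i)⁻¹) * b with hN
  have hbN : b = Matrix.diagonal d * N := by
    rw [hN, ← Matrix.mul_assoc, Matrix.diagonal_mul_diagonal]
    simp [hne]
  obtain ⟨n, hn⟩ := exists_unipotent (N := N)
    (fun i j hij => by rw [hN, Matrix.diagonal_mul, hlow i j hij, mul_zero])
    (fun i => by rw [hN, Matrix.diagonal_mul, ← hdi, inv_mul_cancel₀ (hne i)])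
    (by
      have hD : star3 (Matrix.diagonal d) * gram * Matrix.diagonal d = gram := by
        have hc : ∀ x : Nine, x ≠ 0 → x ^ 3 * (x ^ 3)⁻¹ = 1 ∧ ((x ^ 3)⁻¹) ^ 3 * x = 1 := by decide +kernel
        ext1 i j
        fin_cases i <;> fin_cases j <;>
          simp [star3, gram, Matrix.mul_apply, Fin.sum_univ_four, Matrix.diagonal, hd, (hc _ n0).1, (hc _ n0).2,
            (hc _ n1).1, (hc _ n1).2]
        all_goals first | rfl | linear_combination (hc _ n0).2 | linear_combination (hc _ n1).2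
      calc star3 N * gram * N = star3 N * (star3 (Matrix.diagonal d) * gram * Matrix.diagonal d) * N := by
            rw [hD]
        _ = star3 (Matrix.diagonal d * N) * gram * (Matrix.diagonal d * N) := by
          rw [star3_mul (Matrix.diagonal d) N]; simp only [Matrix.mul_assoc]
        _ = star3 b * gram * b := congrArg (fun Y => star3 Y * gram * Y) hbN.symm
        _ = gram := hbu)
  refine ⟨d, n, b 0 0, b 1 1, hab _ _ (by rw [← e2, ← e3]; exact hdb), rfl, hne, ?_⟩
  rw [hn, Matrix.mul_assoc, ← hbN, hb, ← Matrix.mul_assoc, hinv', one_mul]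

theorem fixed_core {τ : Nine} (hτ : τ ∈ taus) {h : M4} {u v : Cov} (hdet : h.det = 1)
    (hhu : star3 h * gram * h = gram) (eu : h * mtx u = mtx (px1 τ) * h) (ev : h * mtx v = mtx (px2 τ) * h)
    (hcomm : proj u * proj v = proj v * proj u) : ⁅u, v⁆ = ker (τ ^ 2) := by
  have hn : τ ≠ 0 := (by decide +kernel : ∀ t ∈ taus, t ≠ (0 : Nine)) τ hτ
  have qu : ∀ i j, (h * mtx u) i j = (mtx (px1 τ) * h) i j := fun i j => by rw [eu]
  have qv : ∀ i j, (h * mtx v) i j = (mtx (px2 τ) * h) i j := fun i j => by rw [ev]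
  have a00 := qu 0 0
  have a10 := qu 1 0
  have b00 := qv 0 0
  simp [mtx, px1, px2, Matrix.mul_apply, Fin.sum_univ_four] at a00 a10 b00
  have h20 : h 2 0 = 0 := by simpa [hn] using a00
  have h30 : h 3 0 = 0 := by simpa [hn] using a10
  have h10 : h 1 0 = 0 := by simpa [hn] using b00
  have a11 := qu 1 1
  simp [mtx, px1, Matrix.mul_apply, Fin.sum_univ_four, h10] at a11
  have h31 : h 3 1 = 0 := by simpa [hn] using a11
  have q : ∀ i j, (star3 h * gram * h) i j = gram i j := fun i j => by rw [hhu]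
  have q02 := q 0 2
  have q03 := q 0 3
  have q11 := q 1 1
  have q12 := q 1 2
  simp [star3, gram, Matrix.mul_apply, Fin.sum_univ_four, h20, h30, h10, h31] at q02 q03 q11 q12
  have n00 : h 0 0 ≠ 0 := fun e => by simp [e] at q03
  have h32 : h 3 2 = 0 := by simpa [n00] using q02
  have hsel : ∀ x y : Nine, ¬ (x = 0 ∧ y = 0) → y ^ 3 * x + x ^ 3 * y = 0 →
      ∃ k : Fin 4, (line k).2 2 1 * x + (line k).2 2 2 * y = 0 := by decide +kernel
  obtain ⟨k, hL0⟩ := hsel (h 1 1) (h 2 1)
    (fun e => by simp [e.1, e.2, h32] at q12) (by linear_combination q11)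
  have hrow : ∀ k, (line k).2 2 0 = 0 ∧ (line k).2 2 3 = 0 ∧ (line k).2 3 0 = 0 ∧ (line k).2 3 1 = 0 ∧
      (line k).2 3 2 = 0 := by
    decide +kernel
  obtain ⟨r20, r23, r30, r31, r32⟩ := hrow k
  obtain ⟨hinv, hinv', -, -, -, -⟩ := lines_facts k
  set L := line k with hL
  obtain ⟨d, n, α, β, hab, hd, hne, hfac⟩ := upper_of_fixed hL hhu hdet h20 h30 h10 h31
    (by simp [Matrix.mul_apply, Fin.sum_univ_four, r20, r23]; linear_combination hL0)
    (by simp [Matrix.mul_apply, Fin.sum_univ_four, r30, r31, r32, h32])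
  set u' := n * u * n⁻¹ with hu'
  set v' := n * v * n⁻¹ with hv'
  have key : ∀ (x w : Cov), h * mtx w = mtx x * h →
      ∀ i j, (d i)⁻¹ * (L.2 * mtx x * L.1) i j * d j = mtx (n * w * n⁻¹) i j := by
    intro x w e i j
    have e1 : Matrix.diagonal d * mtx (n * w * n⁻¹) = L.2 * mtx x * L.1 * Matrix.diagonal d := by
      have hnn : mtx n * mtx n⁻¹ = 1 := by
        rw [← mtx_mul, mul_inv_cancel]
        ext1 i j
        fin_cases i <;> fin_cases j <;> simp [mtx, one_t, one_a, one_b, one_c]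
      rw [mtx_mul, mtx_mul]
      calc Matrix.diagonal d * (mtx n * mtx w * mtx n⁻¹)
          = L.2 * L.1 * (Matrix.diagonal d * (mtx n * mtx w * mtx n⁻¹)) := by rw [hinv, one_mul]
        _ = L.2 * (h * mtx w) * mtx n⁻¹ := by rw [hfac]; simp only [Matrix.mul_assoc]
        _ = L.2 * (mtx x * h) * mtx n⁻¹ := by rw [e]
        _ = L.2 * mtx x * L.1 * Matrix.diagonal d * (mtx n * mtx n⁻¹) := by
          rw [hfac]; simp only [Matrix.mul_assoc]
        _ = _ := by rw [hnn, mul_one]
    have e2 := congrFun (congrFun e1 i) j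
    rw [Matrix.diagonal_mul, Matrix.mul_diagonal] at e2
    rw [mul_assoc, ← e2, inv_mul_cancel_left₀ (hne i)]
  have hcen : ⁅u, v⁆ ∈ Subgroup.center Cov := ker_le_center (by
    rw [MonoidHom.mem_ker, map_commutatorElement, commutatorElement_eq_one_iff_mul_comm]; exact hcomm)
  have hcc : ⁅u', v'⁆ = ⁅u, v⁆ := by
    rw [hu', hv', show ⁅n * u * n⁻¹, n * v * n⁻¹⁆ = n * ⁅u, v⁆ * n⁻¹ by
      simp only [commutatorElement_def]; group, Subgroup.mem_center_iff.1 hcen n, mul_inv_cancel_right]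
  have hcomm' : proj u' * proj v' = proj v' * proj u' := by
    rw [← commutatorElement_eq_one_iff_mul_comm, ← map_commutatorElement, hcc, map_commutatorElement,
      commutatorElement_eq_one_iff_mul_comm]
    exact hcomm
  rw [← hcc, commutator_eq hcomm']
  refine congrArg ker ?_
  have hk : conjKap L τ α β = τ ^ 2 := conjKap_eq k τ hτ α β hab
  rw [← hk, conjKap]
  simp only [← hd, key _ _ eu, key _ _ ev, ← hu', ← hv']
  simp [mtx]

attribute [local irreducible] bas basInv in
theorem fusion_stable {τ : Nine} (hτ : τ ∈ taus) (g : Cfsg.PSU 4 Nine 3) {u v : Cov}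
    (hu : proj u = g⁻¹ * proj (px1 τ) * g) (hv : proj v = g⁻¹ * proj (px2 τ) * g) :
    ⁅u, v⁆ = ker (τ ^ 2) := by
  obtain ⟨G, rfl⟩ := QuotientGroup.mk'_surjective (Subgroup.center SU4) g
  have eu := mat_eq hu
  have ev := mat_eq hv
  set h := basInv * mat G * bas with hh
  have hGs := mem_SU4.1 G.2
  have hdet : h.det = 1 := by
    rw [hh, Matrix.det_mul, Matrix.det_mul,
      show (mat G).det = 1 from (G : SpecialLinearGroup (Fin 4) Nine).2, mul_one, mul_comm, det_bas]
  have hhu : star3 h * gram * h = gram := by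
    rw [hh, star3_mul, star3_mul]
    calc star3 bas * (star3 (mat G) * star3 basInv) * gram * (basInv * mat G * bas)
        = star3 bas * (star3 (mat G) * (star3 basInv * gram * basInv) * mat G) * bas := by
          simp only [Matrix.mul_assoc]
      _ = gram := by
        rw [bas_facts.2.2.2, mul_one]
        rw [show star3 (mat G) * mat G = 1 from hGs, mul_one, bas_facts.1]
  have hcomm : proj u * proj v = proj v * proj u := by
    have hc : proj (px1 τ) * proj (px2 τ) = proj (px2 τ) * proj (px1 τ) := by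
      rw [← map_mul, ← map_mul]
      have : px2 τ * px1 τ = ker (-(τ * τ)) * (px1 τ * px2 τ) := by
        rw [ker_mul]
        ext1 <;> simp [px1, px2, mul_t, mul_a, mul_b, mul_c, mul_z]
        ring
      rw [this, map_mul proj (ker _), proj_ker, one_mul]
    rw [hu, hv]
    set gq := QuotientGroup.mk' (Subgroup.center SU4) G
    calc gq⁻¹ * proj (px1 τ) * gq * (gq⁻¹ * proj (px2 τ) * gq) = gq⁻¹ * (proj (px1 τ) * proj (px2 τ)) * gq := by
          group
      _ = gq⁻¹ * (proj (px2 τ) * proj (px1 τ)) * gq := by rw [hc]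
      _ = gq⁻¹ * proj (px2 τ) * gq * (gq⁻¹ * proj (px1 τ) * gq) := by group
  exact fixed_core hτ hdet hhu eu ev hcomm

end Cov

end Cfsg.Agent.Lib.SchurMult.UFourThree
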