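import Cfsg.Agent.Lib.SchurMult.UFourThree.Bound
import Cfsg.Agent.Lib.SchurMult.UFourThree.Proj
import Cfsg.Agent.Lib.SchurMult.TransferPairs

/-!
The multiplier of the projective special unitary group of dimension four over nine elements.
-/

set_option autoImplicit false

namespace Cfsg.Agent.Lib.SchurMult.UFourThree

open Cfsg Cfsg.Agent.Lib.Classical.NineField Cfsg.Agent.Lib.Classical.UnitaryFourThree
open scoped commutatorElement

universe u v

/-- The multiplier statement is carried to an isomorphic group in any universe. -/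
theorem transport {G : Type} [Group G] {H : Type u} [Group H] (e : G ≃* H)
    {A : Type v} [CommGroup A] (h : Cfsg.HasSchurMultiplier G A) : Cfsg.HasSchurMultiplier H A := by
  obtain ⟨⟨Γ, _, _, σ, hσ, ⟨i⟩⟩, huniv⟩ := h
  constructor
  · let σ' : ULift.{u} Γ →* H := e.toMonoidHom.comp (σ.comp MulEquiv.ulift.toMonoidHom)
    have hk : ∀ x, x ∈ σ'.ker ↔ x.down ∈ σ.ker := fun x => by
      show e (σ x.down) = 1 ↔ σ x.down = 1
      exact MulEquiv.map_eq_one_iff e
    have hcomm : ∀ x : Γ, x ∈ commutator Γ → (ULift.up.{u} x) ∈ commutator (ULift.{u} Γ) := fun x hx => by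
      let f : Γ →* ULift.{u} Γ := MonoidHom.mk' ULift.up fun _ _ => rfl
      have := Subgroup.mem_map_of_mem f hx
      rw [map_commutator_eq] at this
      exact Subgroup.commutator_mono le_top le_top this
    refine ⟨ULift.{u} Γ, inferInstance, inferInstance, σ', ⟨e.surjective.comp (hσ.1.comp ULift.down_surjective),
      fun x hx => Subgroup.mem_center_iff.2 fun y => ?_, fun x hx => hcomm _ (hσ.2.2 ((hk x).1 hx))⟩, ⟨?_⟩⟩
    · exact ULift.ext _ _ (Subgroup.mem_center_iff.1 (hσ.2.1 ((hk x).1 hx)) y.down)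
    · exact MulEquiv.trans
        { toFun := fun x => ⟨x.1.down, (hk x.1).1 x.2⟩
          invFun := fun y => ⟨⟨y.1⟩, (hk _).2 y.2⟩
          left_inv := fun _ => rfl
          right_inv := fun _ => rfl
          map_mul' := fun _ _ => rfl } i
  · intro Δ _ _ τ hτ
    haveI : Small.{0} Δ := Countable.toSmall Δ
    let d : Shrink.{0} Δ ≃* Δ := Shrink.mulEquiv
    let τ' : Shrink.{0} Δ →* G := e.symm.toMonoidHom.comp (τ.comp d.toMonoidHom)
    have hk : ∀ x, x ∈ τ'.ker ↔ d x ∈ τ.ker := fun x => by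
      show e.symm (τ (d x)) = 1 ↔ τ (d x) = 1
      exact MulEquiv.map_eq_one_iff e.symm
    haveI : Finite (Shrink.{0} Δ) := Finite.of_equiv Δ (equivShrink Δ)
    have hst : Cfsg.IsStemExtension τ' := by
      refine ⟨e.symm.surjective.comp (hτ.1.comp d.surjective), fun x hx => ?_, fun x hx => ?_⟩
      · exact Subgroup.mem_center_iff.2 fun y => d.injective (by
          rw [map_mul, map_mul, Subgroup.mem_center_iff.1 (hτ.2.1 ((hk x).1 hx)) (d y)])
      · have := Subgroup.mem_map_of_mem d.symm.toMonoidHom (hτ.2.2 ((hk x).1 hx))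
        rw [map_commutator_eq] at this
        have h2 := Subgroup.commutator_mono le_top le_top this
        rw [← commutator_def] at h2
        simpa using h2
    obtain ⟨π, hπ⟩ := huniv _ τ' hst
    let f : τ'.ker →* τ.ker :=
      MonoidHom.mk' (fun x => ⟨d x.1, (hk x.1).1 x.2⟩) fun a b => Subtype.ext (map_mul d a.1 b.1)
    have hf : Function.Surjective f := fun y =>
      ⟨⟨d.symm y.1, (hk _).2 (by rw [d.apply_symm_apply]; exact y.2)⟩, Subtype.ext (d.apply_symm_apply _)⟩
    exact ⟨f.comp π, hf.comp hπ⟩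

/-- Diagonal and monomial codes whose commutators multiply to the scalar of order four. -/
def comData : List (Code × Code × Code × Code) :=
  [([3, 0, 0, 0, 0, 1, 0, 0, 0, 0, 6, 0, 0, 0, 0, 1], [6, 0, 0, 0, 0, 1, 0, 0, 0, 0, 3, 0, 0, 0, 0, 1],
    [0, 1, 0, 0, 2, 0, 0, 0, 0, 0, 1, 0, 0, 0, 0, 1], [0, 2, 0, 0, 1, 0, 0, 0, 0, 0, 1, 0, 0, 0, 0, 1]),
   ([1, 0, 0, 0, 0, 2, 0, 0, 0, 0, 1, 0, 0, 0, 0, 2], [1, 0, 0, 0, 0, 2, 0, 0, 0, 0, 1, 0, 0, 0, 0, 2],
    [1, 0, 0, 0, 0, 0, 1, 0, 0, 2, 0, 0, 0, 0, 0, 1], [1, 0, 0, 0, 0, 0, 2, 0, 0, 1, 0, 0, 0, 0, 0, 1]),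
   ([6, 0, 0, 0, 0, 1, 0, 0, 0, 0, 1, 0, 0, 0, 0, 3], [3, 0, 0, 0, 0, 1, 0, 0, 0, 0, 1, 0, 0, 0, 0, 6],
    [1, 0, 0, 0, 0, 1, 0, 0, 0, 0, 0, 1, 0, 0, 2, 0], [1, 0, 0, 0, 0, 1, 0, 0, 0, 0, 0, 2, 0, 0, 1, 0])]

/-- The scalar of order four. -/
def scal : Code := [3, 0, 0, 0, 0, 3, 0, 0, 0, 0, 3, 0, 0, 0, 0, 3]

theorem comData_facts :
    (comData.all fun q => valid q.1 && valid q.2.1 && valid q.2.2.1 && valid q.2.2.2 &&
      smulC 1 (mulC q.1 q.2.1) == idC && smulC 1 (mulC q.2.2.1 q.2.2.2) == idC) = true ∧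
    valid scal = true ∧
    smulC 1 ((comData.map fun q => mulC (mulC q.1 q.2.2.1) (mulC q.2.1 q.2.2.2)).foldr mulC idC) = scal := by
  decide +kernel

theorem scal_mem_commutator : eltS scal ∈ commutator SU4 := by
  obtain ⟨h1, hs, hp⟩ := comData_facts
  have hc : ∀ q ∈ comData, mat ⁅eltS q.1, eltS q.2.2.1⁆ = toMat (mulC (mulC q.1 q.2.2.1) (mulC q.2.1 q.2.2.2)) := by
    intro q hq
    have h := List.all_eq_true.1 h1 q hq
    simp only [Bool.and_eq_true, beq_iff_eq] at h
    obtain ⟨⟨⟨⟨⟨v1, v2⟩, v3⟩, v4⟩, e1⟩, e2⟩ := h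
    have inv1 : (eltS q.1)⁻¹ = eltS q.2.1 := inv_eq_of_mul_eq_one_right (mat_inj (by
      rw [mat_mul, mat_eltS v1, mat_eltS v2, ← toMat_mulC, ← one_smulC, e1, toMat_idC]; rfl))
    have inv2 : (eltS q.2.2.1)⁻¹ = eltS q.2.2.2 := inv_eq_of_mul_eq_one_right (mat_inj (by
      rw [mat_mul, mat_eltS v3, mat_eltS v4, ← toMat_mulC, ← one_smulC, e2, toMat_idC]; rfl))
    rw [commutatorElement_def, inv1, inv2, mat_mul, mat_mul, mat_mul, mat_eltS v1, mat_eltS v2, mat_eltS v3,
      mat_eltS v4, toMat_mulC, toMat_mulC, toMat_mulC, Matrix.mul_assoc]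
  have hprod : ∀ l : List (Code × Code × Code × Code), (∀ q ∈ l, q ∈ comData) →
      mat (l.map fun q => ⁅eltS q.1, eltS q.2.2.1⁆).prod =
        toMat ((l.map fun q => mulC (mulC q.1 q.2.2.1) (mulC q.2.1 q.2.2.2)).foldr mulC idC) := by
    intro l
    induction l with
    | nil => intro _; rw [List.map_nil, List.prod_nil]; exact toMat_idC.symm
    | cons q l ih =>
      intro hl
      rw [List.map_cons, List.prod_cons, mat_mul, hc q (hl q (List.mem_cons_self ..)),
        ih fun r hr => hl r (List.mem_cons_of_mem _ hr), List.map_cons, List.foldr_cons]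
      simp only [toMat_mulC, Matrix.mul_assoc]
  have e : eltS scal = (comData.map fun q => ⁅eltS q.1, eltS q.2.2.1⁆).prod := by
    refine mat_inj ?_
    rw [hprod _ fun q hq => hq, mat_eltS hs, ← hp, one_smulC]
  rw [e]
  refine list_prod_mem fun x hx => ?_
  obtain ⟨q, -, rfl⟩ := List.mem_map.1 hx
  exact Subgroup.commutator_mem_commutator (Subgroup.mem_top _) (Subgroup.mem_top _)

theorem center_eq : Subgroup.center SU4 = Subgroup.zpowers (eltS scal) := by
  have hs := comData_facts.2.1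
  have hm : mat (eltS scal) = (toN 3) • (1 : Matrix (Fin 4) (Fin 4) Nine) := by
    rw [mat_eltS hs, show scal = smulC 3 idC by decide +kernel, toMat_smulC, toMat_idC]
  refine le_antisymm (fun z hz => ?_) ?_
  · obtain ⟨μ, hμ, hzμ⟩ := center_unit hz
    have key : ∀ x : Nine, x ^ 4 = 1 → ∃ j : Fin 4, x = toN 3 ^ (j : ℕ) := by decide +kernel
    obtain ⟨j, hj⟩ := key μ hμ
    refine Subgroup.mem_zpowers_iff.2 ⟨((j : ℕ) : ℤ), ?_⟩
    rw [zpow_natCast]
    refine mat_inj ?_
    rw [mat_pow, hm, smul_pow, one_pow, hzμ, hj]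
  · rw [Subgroup.zpowers_le]
    refine Subgroup.mem_center_iff.2 fun g => mat_inj ?_
    rw [mat_mul, mat_mul, hm, Matrix.mul_smul, Matrix.smul_mul, Matrix.mul_one, Matrix.one_mul]

theorem Cov.card_range : Nat.card Cov.proj.range = 729 := by
  let Im : Type := {x : Nine // x ^ 3 = -x}
  have hIm : Nat.card Im = 3 := by
    rw [Nat.card_eq_fintype_card]; decide +kernel
  have e : Cov ≃ Nine × Nine × Im × Im × Nine :=
    { toFun := fun s => (s.t, s.a, ⟨s.b, s.hb⟩, ⟨s.c, s.hc⟩, s.z)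
      invFun := fun q => ⟨q.1, q.2.1, q.2.2.1.1, q.2.2.2.1.1, q.2.2.2.2, q.2.2.1.2, q.2.2.2.1.2⟩
      left_inv := fun _ => rfl
      right_inv := fun _ => rfl }
  have h := Cov.proj.ker.card_mul_index
  rw [Subgroup.index_ker] at h
  have hk : Nat.card Cov.proj.ker = 9 := by
    let eW : Nine ≃ Cov.proj.ker :=
      { toFun := fun x => ⟨Cov.ker x, Cov.proj_ker x⟩
        invFun := fun s => s.1.z
        left_inv := fun _ => rfl
        right_inv := fun s => Subtype.ext (Cov.proj_eq_one s.2).symm }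
    rw [← Nat.card_congr eW, Nat.card_eq_fintype_card, Nine.card]
  rw [hk, Nat.card_congr e, Nat.card_prod, Nat.card_prod, Nat.card_prod, Nat.card_prod, hIm,
    Nat.card_eq_fintype_card (α := Nine), Nine.card] at h
  omega

theorem hasMultiplier_Q :
    Cfsg.HasSchurMultiplier Q (Multiplicative (ZMod 4 × ZMod 3 × ZMod 3)) := by
  classical
  -- pairs
  let ts : Fin 2 → Nine := ![iu, wu]
  have hts : ∀ j, ts j ∈ Cov.taus := fun j => by fin_cases j <;> simp [ts, Cov.taus, iu, wu]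
  let X : Fin 2 → Cov := fun j => Cov.px1 (ts j)
  let Y : Fin 2 → Cov := fun j => Cov.px2 (ts j)
  have hcube : ∀ s : Cov, s.t = 0 ∨ (s.a = 0 ∧ s.b = 0 ∧ s.c = 0) → Cov.proj s ^ 3 = 1 := by
    intro s hs
    have e : s ^ 3 = Cov.ker (s ^ 3).z := by
      have h3 := three_zero
      have hh : (s ^ 3).t = 0 ∧ (s ^ 3).a = 0 ∧ (s ^ 3).b = 0 ∧ (s ^ 3).c = 0 := by
        simp only [pow_succ, pow_zero, one_mul, Cov.mul_t, Cov.mul_a, Cov.mul_b, Cov.mul_c]
        rcases hs with ht | ⟨ha, hb, hc⟩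
        · simp only [ht]
          refine ⟨by ring, ?_, ?_, ?_⟩
          · linear_combination s.a * h3
          · linear_combination s.b * h3
          · linear_combination s.c * h3
        · simp only [ha, hb, hc]
          refine ⟨by linear_combination s.t * h3, by ring, by ring, by ring⟩
      ext1
      exacts [hh.1, hh.2.1, hh.2.2.1, hh.2.2.2, rfl]
    rw [← map_pow, e, Cov.proj_ker]
  have hker : ∀ j, Cov.proj ⁅X j, Y j⁆ = 1 := fun j => by
    have : Y j * X j = Cov.ker (-(ts j * ts j)) * (X j * Y j) := by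
      rw [Cov.ker_mul]
      ext1 <;> simp [X, Y, Cov.px1, Cov.px2, Cov.mul_t, Cov.mul_a, Cov.mul_b, Cov.mul_c, Cov.mul_z]
      ring
    rw [map_commutatorElement, commutatorElement_eq_one_iff_mul_comm, ← map_mul, ← map_mul, this,
      map_mul Cov.proj (Cov.ker _), Cov.proj_ker, one_mul]
  have hC : ∀ j, ⁅X j, Y j⁆ = Cov.ker (ts j ^ 2) := fun j => by
    have h := hker j
    rw [map_commutatorElement, commutatorElement_eq_one_iff_mul_comm] at h
    rw [Cov.commutator_eq h]
    congr 1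
    simp [X, Y, Cov.px1, Cov.px2, Cov.kap, pow_two]
  have kmul : ∀ x y : Nine, Cov.ker x * Cov.ker y = Cov.ker (x + y) := fun x y => by
    rw [Cov.ker_mul]
    ext1 <;> simp [Cov.ker]
  have hone : Cov.ker 0 = 1 := by ext1 <;> simp [Cov.ker, Cov.one_t, Cov.one_a, Cov.one_b, Cov.one_c, Cov.one_z]
  have cube : ∀ x : Nine, Cov.ker x ^ 3 = 1 := fun x => by
    rw [pow_succ, pow_succ, pow_one, kmul, kmul, ← hone]
    congr 1
    linear_combination x * three_zero
  have hpair : ∀ j, Commute (Cov.proj (X j)) (Cov.proj (Y j)) ∧ Cov.proj ⁅X j, Y j⁆ = 1 ∧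
      ∀ (g : Q) (a b d : ℕ) (u v : Cov), a ∣ orderOf (Cov.proj (X j)) → d ∣ orderOf (Cov.proj (Y j)) → b < d →
        Cov.proj u = g⁻¹ * (Cov.proj (X j) ^ a * Cov.proj (Y j) ^ b) * g →
        Cov.proj v = g⁻¹ * Cov.proj (Y j) ^ d * g → ⁅u, v⁆ = ⁅X j, Y j⁆ ^ (a * d) := by
    intro j
    have hX3 : Cov.proj (X j) ^ 3 = 1 := hcube _ (Or.inl rfl)
    have hY3 : Cov.proj (Y j) ^ 3 = 1 := hcube _ (Or.inr ⟨rfl, rfl, rfl⟩)
    refine ⟨commutatorElement_eq_one_iff_commute.1 (by rw [← map_commutatorElement, hker]), hker j,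
      fun g a b d u v ha hd hb hu hv => ?_⟩
    have ha' : a = 1 ∨ a = 3 := (Nat.dvd_prime Nat.prime_three).1 (ha.trans (orderOf_dvd_of_pow_eq_one hX3))
    have hd' : d = 1 ∨ d = 3 := (Nat.dvd_prime Nat.prime_three).1 (hd.trans (orderOf_dvd_of_pow_eq_one hY3))
    have hc3 : ∀ m : ℕ, 3 ∣ m → ⁅X j, Y j⁆ ^ m = 1 := fun m hm => by
      obtain ⟨k, rfl⟩ := hm
      rw [pow_mul, hC, cube, one_pow]
    rcases hd' with rfl | rfl
    · obtain rfl : b = 0 := by omega
      rw [pow_zero, mul_one] at hu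
      rw [pow_one] at hv
      rcases ha' with rfl | rfl
      · rw [pow_one] at hu
        rw [mul_one, pow_one, Cov.fusion_stable (hts j) g hu hv, hC]
      · rw [hX3, mul_one, inv_mul_cancel] at hu
        rw [hc3 _ (by norm_num), commutatorElement_eq_one_iff_mul_comm]
        exact (Subgroup.mem_center_iff.1 (Cov.ker_le_center hu) v).symm
    · rw [hY3, mul_one, inv_mul_cancel] at hv
      rw [hc3 _ (dvd_mul_left 3 a), commutatorElement_eq_one_iff_mul_comm]
      exact Subgroup.mem_center_iff.1 (Cov.ker_le_center hv) u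
  obtain ⟨r, hr, hrc⟩ := SchurMult.TransferExt.exists_mult_hom_of_stable (P := Cov.proj.range)
    rfl Cov.ker_le_center (fun j => Cov.proj (X j)) (fun j => Cov.proj (Y j)) (fun j => ⁅X j, Y j⁆) hpair
  set W := Cov.proj.ker with hW
  have eW : Nine ≃ W :=
    { toFun := fun x => ⟨Cov.ker x, Cov.proj_ker x⟩
      invFun := fun s => s.1.z
      left_inv := fun x => rfl
      right_inv := fun s => Subtype.ext (Cov.proj_eq_one s.2).symm }
  let φ : W ≃* Multiplicative Nine :=
    { toFun := fun s => Multiplicative.ofAdd s.1.z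
      invFun := fun x => ⟨Cov.ker (Multiplicative.toAdd x), Cov.proj_ker _⟩
      left_inv := fun s => Subtype.ext (Cov.proj_eq_one s.2).symm
      right_inv := fun x => rfl
      map_mul' := fun s u => by
        have e := kmul s.1.z u.1.z
        rw [← Cov.proj_eq_one s.2, ← Cov.proj_eq_one u.2] at e
        show Multiplicative.ofAdd (s.1 * u.1).z = _
        rw [e]
        rfl }
  have hWcard : Nat.card W = 9 := by
    rw [← Nat.card_congr eW, Nat.card_eq_fintype_card, Nine.card]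
  let r' : SchurMult.mult (SchurMult.stdPres Q) →* W := r.codRestrict W hr
  let cw : Fin 2 → W := fun j => ⟨⁅X j, Y j⁆, hker j⟩
  have hrange : ∀ j, φ (cw j) ∈ (φ.toMonoidHom.comp r').range := fun j => by
    obtain ⟨m, hm⟩ := hrc j
    have h3 : cw j ^ 3 = 1 := Subtype.ext (by
      rw [SubgroupClass.coe_pow]; show ⁅X j, Y j⁆ ^ 3 = 1; rw [hC, cube])
    have e : r' m = cw j ^ Cov.proj.range.index := Subtype.ext hm
    have hidx : Cov.proj.range.index % 3 ≠ 0 := by
      intro h0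
      have hd : 3 ∣ Cov.proj.range.index := Nat.dvd_of_mod_eq_zero h0
      have hrg : Nat.card Cov.proj.range = 729 := Cov.card_range
      have h := Cov.proj.range.card_mul_index
      rw [hrg, card_Q] at h
      omega
    set N := Cov.proj.range.index with hN
    refine ⟨m ^ (N % 3), ?_⟩
    show φ (r' (m ^ (N % 3))) = _
    rw [map_pow, e, ← pow_mul]
    congr 1
    obtain ⟨k, hk⟩ : ∃ k, N * (N % 3) = 3 * k + 1 := by
      refine ⟨N * (N % 3) / 3, ?_⟩
      have hdiv := Nat.div_add_mod (N * (N % 3)) 3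
      have h2 : N * (N % 3) % 3 = 1 := by
        rcases (show N % 3 = 1 ∨ N % 3 = 2 by omega) with e | e <;> simp [Nat.mul_mod, e]
      omega
    rw [hk, pow_succ, pow_mul, h3, one_pow, one_mul]
  have hr'surj : Function.Surjective r' := by
    have hgen : ∀ x : Nine, ∃ i k : Fin 3, x = (i : ℕ) • (ts 0 ^ 2) + (k : ℕ) • (ts 1 ^ 2) := by
      decide +kernel
    have hval : ∀ j, φ (cw j) = Multiplicative.ofAdd (ts j ^ 2) := fun j => by
      show Multiplicative.ofAdd (⁅X j, Y j⁆ : Cov).z = _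
      rw [hC]
      rfl
    intro s
    obtain ⟨i, k, e⟩ := hgen (Multiplicative.toAdd (φ s))
    have : φ s ∈ (φ.toMonoidHom.comp r').range := by
      have e' : φ s = φ (cw 0) ^ (i : ℕ) * φ (cw 1) ^ (k : ℕ) := by
        rw [hval, hval, ← ofAdd_nsmul, ← ofAdd_nsmul, ← ofAdd_add, ← e]
        rfl
      rw [e']
      exact mul_mem (pow_mem (hrange 0) _) (pow_mem (hrange 1) _)
    obtain ⟨m, hm⟩ := this
    exact ⟨m, φ.injective hm⟩
  -- the cover by the special unitary group
  let σ4 : SU4 →* Q := QuotientGroup.mk' (Subgroup.center SU4)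
  have hk4 : σ4.ker = Subgroup.center SU4 := QuotientGroup.ker_mk' _
  have hσ4 : Cfsg.IsStemExtension σ4 := ⟨QuotientGroup.mk'_surjective _, hk4.le, by
    rw [hk4, center_eq, Subgroup.zpowers_le]; exact scal_mem_commutator⟩
  have hcard4 : Nat.card σ4.ker = 4 := by
    rw [hk4, Classical.Herm.card_center_SU (q := 3) Nine.card (n := 4) (by norm_num)]
    norm_num
  haveI : IsCyclic σ4.ker := by
    rw [hk4, center_eq]
    infer_instance
  obtain ⟨η, hη⟩ := SchurMult.exists_stem_lift (SchurMult.stdPres Q) hσ4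
  obtain ⟨f4, hf4, -⟩ :=
    SchurMult.exists_surj_mult (SchurMult.stdPres Q) (SchurMult.stdPres_surjective Q) hσ4 hη
  haveI := SchurMult.finite_mult (SchurMult.stdPres Q)
  have hM : Nat.card (SchurMult.mult (SchurMult.stdPres Q)) ≤ 36 := by
    obtain ⟨L, hL⟩ := SchurMult.exists_compl_ker (SchurMult.stdPres Q)
    haveI := hL.normal
    obtain ⟨hfin, hst, ⟨e⟩⟩ :=
      SchurMult.cover_of_compl (SchurMult.stdPres Q) (SchurMult.stdPres_surjective Q) hL
    haveI := hfin
    rw [← Nat.card_congr e.toEquiv]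
    exact Nat.le_of_dvd (by norm_num) (card_ker_dvd hst)
  let g := r'.prod f4
  have hg : Function.Bijective g := by
    have hcard : Nat.card (W × σ4.ker) = 36 := by rw [Nat.card_prod, hWcard, hcard4]
    have h9 : Nat.card W ∣ Nat.card g.range :=
      Subgroup.card_dvd_of_surjective ((MonoidHom.fst W σ4.ker).comp g.range.subtype) fun s => by
        obtain ⟨m, hm⟩ := hr'surj s
        exact ⟨⟨g m, m, rfl⟩, hm⟩
    have h4 : Nat.card σ4.ker ∣ Nat.card g.range :=
      Subgroup.card_dvd_of_surjective ((MonoidHom.snd W σ4.ker).comp g.range.subtype) fun s => by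
        obtain ⟨m, hm⟩ := hf4 s
        exact ⟨⟨g m, m, rfl⟩, hm⟩
    rw [hWcard] at h9
    rw [hcard4] at h4
    have h36 : 36 ≤ Nat.card g.range :=
      Nat.le_of_dvd Nat.card_pos ((by norm_num : Nat.Coprime 9 4).mul_dvd_of_dvd_of_dvd h9 h4)
    have hsurj : Function.Surjective g := by
      rw [← MonoidHom.range_eq_top]
      exact Subgroup.eq_top_of_card_eq _ (le_antisymm
        (Nat.card_le_card_of_injective _ g.range.subtype_injective) (hcard ▸ h36))
    refine (Nat.bijective_iff_surjective_and_card _).2 ⟨hsurj, le_antisymm (hcard ▸ hM) ?_⟩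
    exact Nat.card_le_card_of_surjective g hsurj
  let e4 : σ4.ker ≃* Multiplicative (ZMod 4) := (zmodCyclicMulEquiv (G := σ4.ker) inferInstance).symm.trans
    (AddEquiv.toMultiplicative (ZMod.ringEquivCongr hcard4).toAddEquiv)
  let a9 : Nine ≃+ ZMod 3 × ZMod 3 :=
    { toFun := fun x => ((x.re.val : ZMod 3), (x.im.val : ZMod 3))
      invFun := fun q => ⟨⟨q.1.val, q.1.val_lt⟩, ⟨q.2.val, q.2.val_lt⟩⟩
      left_inv := by decide +kernel
      right_inv := by decide +kernel
      map_add' := by decide +kernel }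
  let e : SchurMult.mult (SchurMult.stdPres Q) ≃* Multiplicative (ZMod 4 × ZMod 3 × ZMod 3) :=
    (MulEquiv.ofBijective g hg).trans
      ((MulEquiv.prodComm).trans
        ((MulEquiv.prodCongr e4 (φ.trans (AddEquiv.toMultiplicative a9))).trans
            (MulEquiv.prodMultiplicative (ZMod 4) (ZMod 3 × ZMod 3)).symm))
  exact SchurMult.hasSchurMultiplier_mult (SchurMult.stdPres Q) (SchurMult.stdPres_surjective Q) e

theorem hasMultiplier {F : Type*} [Field F] [Fintype F] (hF : Fintype.card F = 9) :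
    Cfsg.HasSchurMultiplier (Cfsg.PSU 4 F 3) (Multiplicative (ZMod 4 × ZMod 3 × ZMod 3)) := by
  obtain ⟨e⟩ := PSU_congr (FiniteField.ringEquivOfCardEq (K := Nine) (K' := F) (by rw [hF, Nine.card])) 4 3
  exact transport e hasMultiplier_Q

end Cfsg.Agent.Lib.SchurMult.UFourThree
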