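import Cfsg.Agent.Lib.Classical.UnitaryFourThree

/-!
A central extension of a Sylow 3-subgroup of the unitary group of dimension four over nine elements by the
additive group of the field.
-/

set_option autoImplicit false

namespace Cfsg.Agent.Lib.SchurMult.UFourThree

open Matrix Cfsg.Agent.Lib.Classical.NineField Cfsg.Agent.Lib.Classical.UnitaryFourThree
open scoped commutatorElement

theorem three_zero : (3 : Nine) = 0 := by decide +kernel

theorem two_neg_one : (2 : Nine) = -1 := by decide +kernel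

theorem pow_nine : ∀ x : Nine, x ^ 9 = x := by decide +kernel

theorem imag_comm : ∀ t x : Nine, (t ^ 3 * x - t * x ^ 3) ^ 3 = -(t ^ 3 * x - t * x ^ 3) := by
  decide +kernel

theorem imag_smul : ∀ t c : Nine, c ^ 3 = -c → (t ^ 4 * c) ^ 3 = -(t ^ 4 * c) := by decide +kernel

theorem imag_add : ∀ x y : Nine, x ^ 3 = -x → y ^ 3 = -y → (x + y) ^ 3 = -(x + y) ∧ (-x) ^ 3 = -(-x) := by
  decide +kernel

theorem cube_add : ∀ x y : Nine, (x + y) ^ 3 = x ^ 3 + y ^ 3 := by decide +kernel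

theorem cube_sub : ∀ x y : Nine, (x - y) ^ 3 = x ^ 3 - y ^ 3 := by decide +kernel

/-- Coordinates of the extension. -/
@[ext]
structure Cov where
  /-- Levi coordinate -/
  t : Nine
  /-- diagonal coordinate of the radical -/
  a : Nine
  /-- first imaginary coordinate -/
  b : Nine
  /-- second imaginary coordinate -/
  c : Nine
  /-- kernel coordinate -/
  z : Nine
  /-- `b` is imaginary -/
  hb : b ^ 3 = -b
  /-- `c` is imaginary -/
  hc : c ^ 3 = -c

namespace Cov

instance : Finite Cov :=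
  Finite.of_injective (fun s => (s.t, s.a, s.b, s.c, s.z)) fun s u h => by
    simp only [Prod.mk.injEq] at h
    obtain ⟨h1, h2, h3, h4, h5⟩ := h
    exact Cov.ext h1 h2 h3 h4 h5

instance : Mul Cov :=
  ⟨fun s u => ⟨s.t + u.t, s.a - u.t * s.c + u.a,
    s.b - (u.t ^ 3 * s.a - u.t * s.a ^ 3) + u.t ^ 4 * s.c + u.b, s.c + u.c,
    s.z + u.z + u.t * s.a + u.t ^ 2 * s.c, by
      refine (imag_add _ _ ((imag_add _ _ ?_ (imag_smul _ _ s.hc)).1) u.hb).1
      rw [sub_eq_add_neg]
      exact (imag_add _ _ s.hb (imag_add _ _ (imag_comm _ _) s.hb).2).1,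
    (imag_add _ _ s.hc u.hc).1⟩⟩

instance : One Cov := ⟨⟨0, 0, 0, 0, 0, by decide +kernel, by decide +kernel⟩⟩

instance : Inv Cov :=
  ⟨fun s => ⟨-s.t, -s.a - s.t * s.c,
    (s.t ^ 3 * (-s.a - s.t * s.c) - s.t * (-s.a - s.t * s.c) ^ 3) + s.t ^ 4 * s.c + -s.b, -s.c,
    -s.z + s.t * (s.a + s.t * s.c) + s.t ^ 2 * s.c,
    (imag_add _ _ ((imag_add _ _ (imag_comm _ _) (imag_smul _ _ s.hc)).1)
      (imag_add _ _ s.hb s.hb).2).1,
    (imag_add _ _ s.hc s.hc).2⟩⟩

theorem mul_t (s u : Cov) : (s * u).t = s.t + u.t := rfl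
theorem mul_a (s u : Cov) : (s * u).a = s.a - u.t * s.c + u.a := rfl
theorem mul_b (s u : Cov) :
    (s * u).b = s.b - (u.t ^ 3 * s.a - u.t * s.a ^ 3) + u.t ^ 4 * s.c + u.b := rfl
theorem mul_c (s u : Cov) : (s * u).c = s.c + u.c := rfl
theorem mul_z (s u : Cov) : (s * u).z = s.z + u.z + u.t * s.a + u.t ^ 2 * s.c := rfl
theorem one_t : (1 : Cov).t = 0 := rfl
theorem one_a : (1 : Cov).a = 0 := rfl
theorem one_b : (1 : Cov).b = 0 := rfl
theorem one_c : (1 : Cov).c = 0 := rfl
theorem one_z : (1 : Cov).z = 0 := rfl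
theorem inv_t (s : Cov) : s⁻¹.t = -s.t := rfl
theorem inv_a (s : Cov) : s⁻¹.a = -s.a - s.t * s.c := rfl
theorem inv_b (s : Cov) : s⁻¹.b =
    (s.t ^ 3 * (-s.a - s.t * s.c) - s.t * (-s.a - s.t * s.c) ^ 3) + s.t ^ 4 * s.c + -s.b := rfl
theorem inv_c (s : Cov) : s⁻¹.c = -s.c := rfl
theorem inv_z (s : Cov) : s⁻¹.z = -s.z + s.t * (s.a + s.t * s.c) + s.t ^ 2 * s.c := rfl

theorem cubes (s : Cov) : s.b ^ 3 = -s.b ∧ s.c ^ 3 = -s.c := ⟨s.hb, s.hc⟩

instance : Group Cov :=
  Group.ofLeftAxioms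
    (fun s u r => by
      have h3 := three_zero
      have hc := s.hc
      ext1
      · simp only [mul_t]; ring
      · simp only [mul_a, mul_t, mul_c]; ring
      · simp only [mul_b, mul_a, mul_t, mul_c]
        rw [cube_add (s.a - u.t * s.c) u.a, cube_sub, cube_add u.t r.t, mul_pow, hc]
        linear_combination (-(u.t * r.t ^ 3 * s.c) - u.t ^ 3 * r.t * s.c -
          2 * u.t ^ 2 * r.t ^ 2 * s.c) * h3
      · simp only [mul_c]; ring
      · simp only [mul_z, mul_a, mul_t, mul_c]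
        linear_combination (-(u.t * r.t * s.c)) * h3)
    (fun s => by ext1 <;> simp [mul_t, mul_a, mul_b, mul_c, mul_z, one_t, one_a, one_b, one_c, one_z])
    (fun s => by
      ext1
      · simp only [mul_t, inv_t, one_t]; ring
      · simp only [mul_a, inv_a, inv_t, inv_c, one_a]; ring
      · simp only [mul_b, inv_a, inv_b, inv_c, inv_t, one_b]; ring
      · simp only [mul_c, inv_c, one_c]; ring
      · simp only [mul_z, inv_z, inv_a, inv_c, inv_t, one_z]
        linear_combination 0 * three_zero)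

/-- The matrix for the form with antidiagonal Gram matrix. -/
def mtx (s : Cov) : Matrix (Fin 4) (Fin 4) Nine :=
  !![1, s.t, s.a + s.t * s.c, s.b - s.t * s.a ^ 3; 0, 1, s.c, -(s.a ^ 3); 0, 0, 1, -(s.t ^ 3); 0, 0, 0, 1]

theorem mtx_mul (s u : Cov) : mtx (s * u) = mtx s * mtx u := by
  have h3 := three_zero
  have hc := s.hc
  ext1 i j
  fin_cases i <;> fin_cases j <;>
    simp [mtx, Matrix.mul_apply, Fin.sum_univ_four, mul_t, mul_a, mul_b, mul_c, cube_add, cube_sub, mul_pow, hc]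
  all_goals first
    | ring1
    | linear_combination (u.t * s.a ^ 3) * h3
    | linear_combination (s.t * u.t * s.c) * h3

/-- A kernel element. -/
def ker (x : Nine) : Cov := ⟨0, 0, 0, 0, x, by decide +kernel, by decide +kernel⟩

theorem ker_mul (x : Nine) (s : Cov) : ker x * s = ⟨s.t, s.a, s.b, s.c, x + s.z, s.hb, s.hc⟩ := by
  ext1 <;> simp [ker, mul_t, mul_a, mul_b, mul_c, mul_z]

theorem ker_comm (x : Nine) (s : Cov) : ker x * s = s * ker x := by
  rw [ker_mul]
  ext1 <;> simp [ker, mul_t, mul_a, mul_b, mul_c, mul_z, add_comm]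

end Cov

end Cfsg.Agent.Lib.SchurMult.UFourThree
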